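import Mathlib

set_option autoImplicit false

namespace Cfsg.Agent.Lib.Helper84.PS

variable {G : Type*} [Group G]

/-- class size of `x` -/
noncomputable abbrev idx (x : G) : ℕ := (Subgroup.centralizer ({x} : Set G)).index

/-- `x` is a `p`-element -/
def IsPE (p : ℕ) (x : G) : Prop := ∃ e : ℕ, x ^ p ^ e = 1

/-- some `p`-singular class size is divisible by both `t` and `q` -/
def Lk (G : Type*) [Group G] (p t q : ℕ) : Prop :=
  ∃ z : G, p ∣ orderOf z ∧ t ∣ idx z ∧ q ∣ idx z

/-- the normal subgroup generated by the quotients of conjugates of `v` -/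
def KK (v : G) : Subgroup G :=
  Subgroup.closure {k : G | ∃ g h : G, k = (g * v * g⁻¹) * (h * v * h⁻¹)⁻¹}

end Cfsg.Agent.Lib.Helper84.PS
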