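import Mathlib
import Cfsg.Agent.Lib.Helper84.PS.Defs

set_option autoImplicit false

namespace Cfsg.Agent.Lib.Helper84.PS

variable {G : Type*} [Group G]

theorem idx_conj (g x : G) : idx (g * x * g⁻¹) = idx x := by
  have h : Subgroup.centralizer ({g * x * g⁻¹} : Set G)
      = (Subgroup.centralizer ({x} : Set G)).map (MulAut.conj g).toMonoidHom := by
    ext y
    rw [Subgroup.mem_centralizer_singleton_iff, Subgroup.mem_map]
    constructor
    · intro hy
      refine ⟨g⁻¹ * y * g, ?_, by simp [MulAut.conj_apply, mul_assoc]⟩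
      rw [Subgroup.mem_centralizer_singleton_iff]
      have h1 : y * (g * x * g⁻¹) = g * x * g⁻¹ * y := hy
      calc g⁻¹ * y * g * x = g⁻¹ * (y * (g * x * g⁻¹)) * g := by group
        _ = g⁻¹ * (g * x * g⁻¹ * y) * g := by rw [h1]
        _ = x * (g⁻¹ * y * g) := by group
    · rintro ⟨w, hw, rfl⟩
      rw [Subgroup.mem_centralizer_singleton_iff] at hw
      have h1 : w * x = x * w := hw
      simp only [MulEquiv.coe_toMonoidHom, MulAut.conj_apply]
      calc g * w * g⁻¹ * (g * x * g⁻¹) = g * (w * x) * g⁻¹ := by group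
        _ = g * (x * w) * g⁻¹ := by rw [h1]
        _ = g * x * g⁻¹ * (g * w * g⁻¹) := by group
  unfold idx
  rw [h]
  exact Subgroup.index_map_equiv _ (MulAut.conj g)

theorem idx_pow_dvd [Finite G] (x : G) (k : ℕ) : idx (x ^ k) ∣ idx x := by
  apply Subgroup.index_dvd_of_le
  intro y hy
  rw [Subgroup.mem_centralizer_singleton_iff] at hy ⊢
  have h : Commute y x := hy
  exact h.pow_right k

theorem idx_eq_one_iff (x : G) : idx x = 1 ↔ x ∈ Subgroup.center G := by
  unfold idx
  rw [Subgroup.index_eq_one, Subgroup.mem_center_iff]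
  constructor
  · intro h g
    have : g ∈ Subgroup.centralizer ({x} : Set G) := by rw [h]; trivial
    rw [Subgroup.mem_centralizer_singleton_iff] at this
    exact this
  · intro h
    rw [eq_top_iff]
    intro g _
    rw [Subgroup.mem_centralizer_singleton_iff]
    exact h g

theorem isPE_conj {p : ℕ} {x : G} (h : IsPE p x) (g : G) : IsPE p (g * x * g⁻¹) := by
  obtain ⟨e, he⟩ := h
  exact ⟨e, by rw [conj_pow, he]; group⟩

/-- a nontrivial `p`-element is `p`-singular -/
theorem dvd_orderOf_of_isPE {p : ℕ} [Fact p.Prime] {x : G} (h : IsPE p x) (h1 : x ≠ 1) :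
    p ∣ orderOf x := by
  obtain ⟨e, he⟩ := h
  have hp : p.Prime := Fact.out
  obtain ⟨k, _, hk⟩ := (Nat.dvd_prime_pow hp).mp (orderOf_dvd_of_pow_eq_one he)
  rw [hk]
  rcases Nat.eq_zero_or_pos k with h0 | h0
  · exfalso
    apply h1
    rw [h0, pow_zero, orderOf_eq_one_iff] at hk
    exact hk
  · exact dvd_pow_self p (by omega)

/-- a nontrivial `p`-element is not central when `p ∤ |Z(G)|` -/
theorem idx_ne_one_of_isPE [Finite G] {p : ℕ} [Fact p.Prime]
    (hZ : ¬ p ∣ Nat.card ↥(Subgroup.center G)) {x : G} (h : IsPE p x) (h1 : x ≠ 1) :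
    idx x ≠ 1 := by
  intro hx
  rw [idx_eq_one_iff] at hx
  apply hZ
  have h2 : p ∣ orderOf x := dvd_orderOf_of_isPE h h1
  have h3 : orderOf (⟨x, hx⟩ : Subgroup.center G) = orderOf x := Subgroup.orderOf_mk x hx
  exact h2.trans (h3 ▸ orderOf_dvd_natCard _)

/-- the `p`-part of a `p`-singular element -/
theorem exists_ppart [Finite G] {p : ℕ} [Fact p.Prime] (x : G) (hx : p ∣ orderOf x) :
    ∃ u : G, u ≠ 1 ∧ IsPE p u ∧ idx u ∣ idx x := by
  have hp : p.Prime := Fact.out
  have h0 : orderOf x ≠ 0 := (orderOf_pos x).ne'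
  obtain ⟨k, m, hm, hkm⟩ := Nat.exists_eq_pow_mul_and_not_dvd h0 p hp.ne_one
  refine ⟨x ^ m, ?_, ⟨k, ?_⟩, idx_pow_dvd x m⟩
  · intro h
    have h2 : orderOf x ∣ m := orderOf_dvd_of_pow_eq_one h
    exact hm (hx.trans h2)
  · rw [← pow_mul, mul_comm, ← hkm, pow_orderOf_eq_one]

end Cfsg.Agent.Lib.Helper84.PS
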