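import Mathlib
import Cfsg.Agent.Lib.Helper84.PS.Defs
import Cfsg.Agent.Lib.Helper84.PS.BAS
import Cfsg.Agent.Lib.Helper58.PRegularCentral

set_option autoImplicit false

namespace Cfsg.Agent.Lib.Helper84.PS

variable {G : Type*} [Group G]

theorem st3_aux [Finite G] (p : ℕ) [Fact p.Prime] (u : G) (hup : IsPE p u) (hu : u ≠ 1)
    (w : G) (hw : Commute w u) (hwp : (orderOf w).Coprime p) :
    p ∣ orderOf (u * w) ∧ Subgroup.centralizer ({u * w} : Set G) ≤
      Subgroup.centralizer ({u} : Set G) ⊓ Subgroup.centralizer ({w} : Set G) := by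
  have hp : p.Prime := Fact.out
  obtain ⟨e, he⟩ := hup
  obtain ⟨k, _, hk⟩ := (Nat.dvd_prime_pow hp).mp (orderOf_dvd_of_pow_eq_one he)
  have hcop : (orderOf u).Coprime (orderOf w) := by
    rw [hk]; exact (Nat.Coprime.pow_right k hwp).symm
  constructor
  · rw [hw.symm.orderOf_mul_eq_mul_orderOf_of_coprime hcop]
    exact (dvd_orderOf_of_isPE ⟨e, he⟩ hu).mul_right _
  · intro x hx
    rw [Subgroup.mem_centralizer_singleton_iff] at hx
    have hx' : Commute x (u * w) := hx
    obtain ⟨m, hm⟩ := exists_pow_eq_self_of_coprime hcop.symm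
    obtain ⟨n, hn⟩ := exists_pow_eq_self_of_coprime hcop
    have h1 : ((u * w) ^ orderOf w) ^ m = u := by
      rw [hw.symm.mul_pow, pow_orderOf_eq_one, mul_one, hm]
    have h2 : ((u * w) ^ orderOf u) ^ n = w := by
      rw [hw.symm.mul_pow, pow_orderOf_eq_one, one_mul, hn]
    rw [Subgroup.mem_inf, Subgroup.mem_centralizer_singleton_iff,
      Subgroup.mem_centralizer_singleton_iff]
    constructor
    · have : Commute x u := by rw [← h1]; exact (hx'.pow_right _).pow_right _
      exact this
    · have : Commute x w := by rw [← h2]; exact (hx'.pow_right _).pow_right _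
      exact this

theorem st3 [Finite G] (p : ℕ) [Fact p.Prime] (u : G) (hup : IsPE p u) (hu : u ≠ 1)
    (t : ℕ) (ht : t ∣ idx u) (hNA : ¬ Lk G p t p)
    (P : Sylow p G) (hP : (P : Subgroup G) ≤ Subgroup.centralizer ({u} : Set G))
    (w : G) (hw : Commute w u) (hwp : ¬ p ∣ orderOf w) : ∀ x ∈ (P : Subgroup G), Commute w x := by
  have hp : p.Prime := Fact.out
  set U := Subgroup.centralizer ({u} : Set G) with hU
  have key : ∀ y : ↥U, (orderOf y).Coprime p →
      ¬ p ∣ (Subgroup.centralizer ({y} : Set ↥U)).index := by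
    intro y hy hdvd
    have hyu : Commute (y : G) u := by
      have h0 : (y : G) ∈ Subgroup.centralizer ({u} : Set G) := y.2
      rw [Subgroup.mem_centralizer_singleton_iff] at h0
      exact h0
    have hy' : (orderOf (y : G)).Coprime p := by rwa [Subgroup.orderOf_coe]
    obtain ⟨h1, h2⟩ := st3_aux p u hup hu (y : G) hyu hy'
    have h3 : Subgroup.centralizer ({y} : Set ↥U)
        = (Subgroup.centralizer ({(y : G)} : Set G)).subgroupOf U := by
      ext x
      rw [Subgroup.mem_centralizer_singleton_iff, Subgroup.mem_subgroupOf,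
        Subgroup.mem_centralizer_singleton_iff]
      constructor
      · intro h; exact congrArg Subtype.val h
      · intro h; exact Subtype.ext h
    have h4 : (Subgroup.centralizer ({y} : Set ↥U)).index
        = (U ⊓ Subgroup.centralizer ({(y : G)} : Set G)).relIndex U := by
      rw [h3, Subgroup.inf_relIndex_left]; rfl
    have h5 : (U ⊓ Subgroup.centralizer ({(y : G)} : Set G)).relIndex U * U.index
        = (U ⊓ Subgroup.centralizer ({(y : G)} : Set G)).index :=
      Subgroup.relIndex_mul_index inf_le_left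
    have h6 : (U ⊓ Subgroup.centralizer ({(y : G)} : Set G)).index ∣ idx (u * (y : G)) :=
      Subgroup.index_dvd_of_le h2
    have h7 : p ∣ idx (u * (y : G)) := by
      refine dvd_trans ?_ h6
      rw [← h5, ← h4]
      exact hdvd.mul_right _
    have h8 : t ∣ idx (u * (y : G)) :=
      ht.trans (Subgroup.index_dvd_of_le (h2.trans inf_le_left))
    exact hNA ⟨u * (y : G), h1, h8, h7⟩
  have hres := (Cfsg.Agent.Lib.Helper58.sylow_normal_of_pregular_index key (P.subtype hP)).2
  have hwU : w ∈ U := by
    rw [hU, Subgroup.mem_centralizer_singleton_iff]; exact hw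
  have hw2 : (orderOf (⟨w, hwU⟩ : ↥U)).Coprime p := by
    rw [Subgroup.orderOf_mk]
    exact ((Nat.Prime.coprime_iff_not_dvd hp).mpr hwp).symm
  have h9 := hres ⟨w, hwU⟩ hw2
  intro x hx
  rw [Subgroup.mem_centralizer_iff] at h9
  have h10 := h9 ⟨x, hP hx⟩ (by
    show (⟨x, hP hx⟩ : ↥U) ∈ ((P.subtype hP : Sylow p ↥U) : Subgroup ↥U)
    rw [Sylow.coe_subtype, Subgroup.mem_subgroupOf]
    exact hx)
  have h11 : x * w = w * x := congrArg Subtype.val h10
  exact h11.symm

end Cfsg.Agent.Lib.Helper84.PS
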