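import Mathlib
import Cfsg.Agent.Lib.Helper84.PS.Defs
import Cfsg.Agent.Lib.Helper12.Card

set_option autoImplicit false

open Pointwise

namespace Cfsg.Agent.Lib.Helper84.PS

variable {G : Type*} [Group G]

theorem exists_sylow_le [Finite G] {l : ℕ} [Fact l.Prime] (x : G) (h : ¬ l ∣ idx x) :
    ∃ S : Sylow l G, (S : Subgroup G) ≤ Subgroup.centralizer ({x} : Set G) := by
  obtain ⟨Q⟩ : Nonempty (Sylow l (Subgroup.centralizer ({x} : Set G))) := inferInstance
  have hQ : IsPGroup l ((Q : Subgroup _).map (Subgroup.centralizer ({x} : Set G)).subtype) :=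
    Q.2.map _
  obtain ⟨S, hS⟩ := hQ.exists_le_sylow
  refine ⟨S, ?_⟩
  have hcard : Nat.card ((Q : Subgroup _).map (Subgroup.centralizer ({x} : Set G)).subtype)
      = Nat.card (S : Subgroup G) := by
    rw [Subgroup.card_map_of_injective (Subgroup.subtype_injective _), Sylow.card_eq_multiplicity,
      Sylow.card_eq_multiplicity]
    congr 1
    have h1 := Subgroup.card_mul_index (Subgroup.centralizer ({x} : Set G))
    rw [← h1, Nat.factorization_mul Nat.card_pos.ne' Subgroup.index_ne_zero_of_finite]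
    have h2 : (Subgroup.centralizer ({x} : Set G)).index.factorization l = 0 :=
      Nat.factorization_eq_zero_of_not_dvd h
    simp [h2]
  have heq : (Q : Subgroup _).map (Subgroup.centralizer ({x} : Set G)).subtype = (S : Subgroup G) :=
    Subgroup.eq_of_le_of_card_ge hS hcard.ge
  rw [← heq]
  exact Subgroup.map_subtype_le _

theorem not_dvd_idx_of_sylow_le [Finite G] {l : ℕ} [Fact l.Prime] (x : G) (S : Sylow l G)
    (h : (S : Subgroup G) ≤ Subgroup.centralizer ({x} : Set G)) : ¬ l ∣ idx x := by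
  intro hd
  exact S.not_dvd_index (hd.trans (Subgroup.index_dvd_of_le h))

/-- a `p`-element centralizing a Sylow `p`-subgroup lies in it -/
theorem mem_sylow_of_le_centralizer [Finite G] {p : ℕ} [Fact p.Prime] (x : G) (hx : IsPE p x)
    (P : Sylow p G) (h : (P : Subgroup G) ≤ Subgroup.centralizer ({x} : Set G)) :
    x ∈ (P : Subgroup G) := by
  have hz : IsPGroup p (Subgroup.zpowers x) := by
    obtain ⟨e, he⟩ := hx
    rw [IsPGroup.iff_card]
    have hp : p.Prime := Fact.out
    obtain ⟨k, _, hk⟩ := (Nat.dvd_prime_pow hp).mp (orderOf_dvd_of_pow_eq_one he)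
    exact ⟨k, by rw [Nat.card_zpowers, hk]⟩
  have hn : (P : Subgroup G) ≤ Subgroup.normalizer ((Subgroup.zpowers x : Subgroup G) : Set G) := by
    intro y hy
    have hc := h hy
    rw [Subgroup.mem_centralizer_singleton_iff] at hc
    have hc' : Commute y x := hc
    rw [Subgroup.mem_normalizer_iff]
    intro w
    constructor
    · intro hw
      obtain ⟨n, rfl⟩ := Subgroup.mem_zpowers_iff.mp hw
      have : y * x ^ n * y⁻¹ = x ^ n := by
        rw [(hc'.zpow_right n).eq, mul_inv_cancel_right]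
      rw [this]; exact hw
    · intro hw
      obtain ⟨n, hn⟩ := Subgroup.mem_zpowers_iff.mp hw
      have : w = x ^ n := by
        have h1 : w = y⁻¹ * (y * w * y⁻¹) * y := by group
        rw [h1, ← hn, mul_assoc, ← (hc'.zpow_right n).eq, inv_mul_cancel_left]
      rw [this]; exact Subgroup.zpow_mem_zpowers x n
  have hsup : IsPGroup p ((P : Subgroup G) ⊔ Subgroup.zpowers x : Subgroup G) :=
    IsPGroup.to_sup_of_normal_right' P.2 hz hn
  have := P.is_maximal' hsup le_sup_left
  have hx2 : x ∈ ((P : Subgroup G) ⊔ Subgroup.zpowers x : Subgroup G) :=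
    (le_sup_right : Subgroup.zpowers x ≤ _) (Subgroup.mem_zpowers x)
  rw [this] at hx2
  exact hx2

/-- a `p`-element is conjugate into a given Sylow `p`-subgroup -/
theorem exists_conj_mem_sylow [Finite G] {p : ℕ} [Fact p.Prime] (x : G) (hx : IsPE p x)
    (P : Sylow p G) : ∃ g : G, g * x * g⁻¹ ∈ (P : Subgroup G) := by
  have hz : IsPGroup p (Subgroup.zpowers x) := by
    obtain ⟨e, he⟩ := hx
    rw [IsPGroup.iff_card]
    have hp : p.Prime := Fact.out
    obtain ⟨k, _, hk⟩ := (Nat.dvd_prime_pow hp).mp (orderOf_dvd_of_pow_eq_one he)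
    exact ⟨k, by rw [Nat.card_zpowers, hk]⟩
  obtain ⟨S, hS⟩ := hz.exists_le_sylow
  obtain ⟨g, hg⟩ := MulAction.exists_smul_eq G S P
  refine ⟨g, ?_⟩
  rw [← hg, Sylow.coe_subgroup_smul]
  have : g * x * g⁻¹ = MulAut.conj g • x := rfl
  rw [this]
  exact Subgroup.smul_mem_pointwise_smul _ _ _ (hS (Subgroup.mem_zpowers x))

/-- coprime indices: `G = H K` -/
theorem exists_mul_of_coprime [Finite G] (H K : Subgroup G) (h : (H.index).Coprime K.index)
    (g : G) : ∃ a ∈ H, ∃ b ∈ K, g = a * b := by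
  have h1 := Cfsg.Agent.Lib.Helper12.mul_eq_univ_of_coprime_index H K h
  have h2 : g ∈ (H : Set G) * (K : Set G) := by rw [h1]; trivial
  obtain ⟨a, ha, b, hb, hab⟩ := Set.mem_mul.mp h2
  exact ⟨a, ha, b, hb, hab.symm⟩

end Cfsg.Agent.Lib.Helper84.PS
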