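import Mathlib
import Cfsg.Agent.Lib.Helper84.PS.Defs
import Cfsg.Agent.Lib.Helper84.PS.BAS
import Cfsg.Agent.Lib.Helper84.PS.SYL

set_option autoImplicit false

namespace Cfsg.Agent.Lib.Helper84.PS

variable {G : Type*} [Group G]

theorem st5 [Finite G] (p : ℕ) [Fact p.Prime] (u : G)
    (hNA : ∀ t : ℕ, t.Prime → t ∣ idx u → ¬ Lk G p t p)
    (P : Sylow p G)
    (h3 : ∀ w : G, Commute w u → ¬ p ∣ orderOf w → ∀ x ∈ (P : Subgroup G), Commute w x)
    (y : G) (hyp : IsPE p y) (hy : p ∣ idx y) (l : ℕ) (hl : l.Prime) (hlp : l ≠ p) :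
    ¬ l ∣ idx y := by
  intro hly
  have hp : p.Prime := Fact.out
  have hy1 : y ≠ 1 := by
    rintro rfl
    have : idx (1 : G) = 1 := (idx_eq_one_iff 1).mpr (Subgroup.one_mem _)
    rw [this] at hy
    exact hp.one_lt.ne' (Nat.dvd_one.mp hy)
  have hys : p ∣ orderOf y := dvd_orderOf_of_isPE hyp hy1
  have hlu : ¬ l ∣ idx u := fun h => hNA l hl h ⟨y, hys, hly, hy⟩
  haveI : Fact l.Prime := ⟨hl⟩
  obtain ⟨S, hS⟩ := exists_sylow_le u hlu
  obtain ⟨g, hg⟩ := exists_conj_mem_sylow y hyp P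
  have hSy : (S : Subgroup G) ≤ Subgroup.centralizer ({g * y * g⁻¹} : Set G) := by
    intro s hs
    rw [Subgroup.mem_centralizer_singleton_iff]
    have hsu : Commute s u := by
      have := hS hs
      rw [Subgroup.mem_centralizer_singleton_iff] at this
      exact this
    have hso : ¬ p ∣ orderOf s := by
      obtain ⟨k, hk⟩ := (IsPGroup.iff_orderOf.mp S.2) ⟨s, hs⟩
      rw [Subgroup.orderOf_mk] at hk
      rw [hk]
      intro h
      exact hlp ((Nat.prime_dvd_prime_iff_eq hp hl).mp (hp.dvd_of_dvd_pow h)).symm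
    exact h3 s hsu hso _ hg
  have := not_dvd_idx_of_sylow_le _ S hSy
  rw [idx_conj] at this
  exact this hly

end Cfsg.Agent.Lib.Helper84.PS
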