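import Mathlib
import Cfsg.Agent.Lib.Helper84.PS.Defs
import Cfsg.Agent.Lib.Helper84.PS.BAS
import Cfsg.Agent.Lib.Helper84.PS.SYL
import Cfsg.Agent.Lib.Helper84.PS.ST3
import Cfsg.Agent.Lib.Helper84.PS.ST5
import Cfsg.Agent.Lib.Helper26.PSS1A
import Cfsg.Agent.Lib.Helper26.PSS1B
import Cfsg.Agent.Lib.Helper26.PSS1C
import Cfsg.Agent.Lib.Helper14.PSST6
import Cfsg.Agent.Lib.Helper14.PSST7

set_option autoImplicit false

namespace Cfsg.Agent.Lib.Helper84.PS

open Cfsg.Agent.Lib.Helper26.PS Cfsg.Agent.Lib.Helper14.PS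

variable {G : Type*} [Group G]

theorem main_index_inf [Finite G] (H K : Subgroup G)
    (h : (H.index).Coprime K.index) : (H ⊓ K).index = H.index * K.index := by
  apply le_antisymm Subgroup.index_inf_le
  apply Nat.le_of_dvd
  · exact Nat.pos_of_ne_zero Subgroup.index_ne_zero_of_finite
  · exact h.mul_dvd_of_dvd_of_dvd (Subgroup.index_dvd_of_le inf_le_left)
      (Subgroup.index_dvd_of_le inf_le_right)

theorem s1 [Finite G] (p : ℕ) [Fact p.Prime] (u v : G) (huv : Commute u v) (hvp : IsPE p v)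
    (hc1 : (idx u).Coprime (idx v)) (hc2 : (idx (u * v)).Coprime (idx v)) (hpu : ¬ p ∣ idx u) :
    v ∈ Subgroup.center G := by
  have hmul : ∀ k k' : G, (∀ c : G, ∃ d : G, c * u * c⁻¹ * k = d * u * d⁻¹) →
      (∀ c : G, ∃ d : G, c * u * c⁻¹ * k' = d * u * d⁻¹) →
      ∀ c : G, ∃ d : G, c * u * c⁻¹ * (k * k') = d * u * d⁻¹ := by
    intro k k' h1 h2 c
    obtain ⟨d, hd⟩ := h1 c
    obtain ⟨d', hd'⟩ := h2 d
    exact ⟨d', by rw [← mul_assoc, hd, hd']⟩
  have hone : ∀ c : G, ∃ d : G, c * u * c⁻¹ * 1 = d * u * d⁻¹ := fun c => ⟨c, by rw [mul_one]⟩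
  have hpow : ∀ (k : G), (∀ c : G, ∃ d : G, c * u * c⁻¹ * k = d * u * d⁻¹) → ∀ n : ℕ,
      ∀ c : G, ∃ d : G, c * u * c⁻¹ * k ^ n = d * u * d⁻¹ := by
    intro k hk n
    induction n with
    | zero => simpa using hone
    | succ n ih => rw [pow_succ]; exact hmul _ _ ih hk
  have hst : ∀ k ∈ KK v, ∀ c : G, ∃ d : G, c * u * c⁻¹ * k = d * u * d⁻¹ := by
    intro k hk
    unfold KK at hk
    induction hk using Subgroup.closure_induction with
    | mem x hx =>
      obtain ⟨g, h, rfl⟩ := hx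
      intro c
      exact s1a u v huv hc1 hc2 c g h
    | one => exact hone
    | mul x y _ _ hx hy => exact hmul x y hx hy
    | inv x _ hx =>
      have : x⁻¹ = x ^ (orderOf x - 1) := by
        have h0 : 0 < orderOf x := orderOf_pos x
        apply inv_eq_of_mul_eq_one_right
        rw [← pow_succ', Nat.sub_add_cancel h0, pow_orderOf_eq_one]
      rw [this]
      exact hpow x hx _
  have hdvd : Nat.card (KK v) ∣ idx u := s1b u (KK v) (fun c k hk => hst k hk c)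
  exact s1c p v hvp (Nat.Coprime.coprime_dvd_left hdvd hc1) (fun h => hpu (h.trans hdvd))

theorem main_isPE_mul {p : ℕ} {a b : G} (hab : Commute a b) (ha : IsPE p a) (hb : IsPE p b) :
    IsPE p (a * b) := by
  obtain ⟨e, he⟩ := ha
  obtain ⟨f, hf⟩ := hb
  refine ⟨e + f, ?_⟩
  rw [hab.mul_pow, pow_add, pow_mul, he, one_pow, one_mul, mul_comm, pow_mul, hf, one_pow]

theorem caseA [Finite G] (p : ℕ) [Fact p.Prime] (hZ : ¬ p ∣ Nat.card ↥(Subgroup.center G))
    (u v : G) (hu : u ≠ 1) (hv : v ≠ 1) (hup : IsPE p u) (hvp : IsPE p v)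
    (hpu : ¬ p ∣ idx u) (hpv : ¬ p ∣ idx v)
    (hNA : ∀ t q : ℕ, t.Prime → q.Prime → t ∣ idx u → q ∣ idx v → ¬ Lk G p t q) : False := by
  obtain ⟨P', hP'⟩ := exists_sylow_le v hpv
  obtain ⟨g, hg⟩ := exists_conj_mem_sylow u hup P'
  set u' := g * u * g⁻¹ with hu'
  have hidx : idx u' = idx u := idx_conj g u
  have hu'1 : u' ≠ 1 := by
    intro h
    apply hu
    have : g * u * g⁻¹ = 1 := h
    have h2 : u = g⁻¹ * (g * u * g⁻¹) * g := by group
    rw [h2, this]; group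
  have hu'p : IsPE p u' := isPE_conj hup g
  have hcomm : Commute u' v := by
    have := hP' hg
    rw [Subgroup.mem_centralizer_singleton_iff] at this
    exact this
  have hcop : (idx u').Coprime (idx v) := by
    rw [hidx]
    apply Nat.coprime_of_dvd
    intro k hk h1 h2
    exact hNA k k hk hk h1 h2 ⟨u, dvd_orderOf_of_isPE hup hu, h1, h1⟩
  have hv1 : idx v ≠ 1 := idx_ne_one_of_isPE hZ hvp hv
  have hu1 : idx u' ≠ 1 := idx_ne_one_of_isPE hZ hu'p hu'1
  set z := u' * v with hz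
  have hzp : IsPE p z := main_isPE_mul hcomm hu'p hvp
  have hz1 : z ≠ 1 := by
    intro h
    have h1 : v = u'⁻¹ := (inv_eq_of_mul_eq_one_right h).symm
    have h2 : u'⁻¹ = u' ^ (orderOf u' - 1) := by
      have h0 : 0 < orderOf u' := orderOf_pos u'
      apply inv_eq_of_mul_eq_one_right
      rw [← pow_succ', Nat.sub_add_cancel h0, pow_orderOf_eq_one]
    have h3 : idx v ∣ idx u' := by
      rw [h1, h2]; exact idx_pow_dvd _ _
    exact hv1 (Nat.eq_one_of_dvd_coprimes hcop.symm (dvd_refl _) h3)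
  have hzs : p ∣ orderOf z := dvd_orderOf_of_isPE hzp hz1
  have hzi : idx z ≠ 1 := idx_ne_one_of_isPE hZ hzp hz1
  have hzd : idx z ∣ idx u' * idx v := by
    rw [← main_index_inf _ _ hcop]
    apply Subgroup.index_dvd_of_le
    intro x hx
    rw [Subgroup.mem_inf, Subgroup.mem_centralizer_singleton_iff,
      Subgroup.mem_centralizer_singleton_iff] at hx
    rw [Subgroup.mem_centralizer_singleton_iff]
    have h1 : Commute x u' := hx.1
    have h2 : Commute x v := hx.2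
    exact (h1.mul_right h2)
  obtain ⟨l, hl, hlz⟩ := Nat.exists_prime_and_dvd hzi
  rcases (Nat.Prime.dvd_mul hl).mp (hlz.trans hzd) with h | h
  · have hc2 : (idx (u' * v)).Coprime (idx v) := by
      apply Nat.coprime_of_dvd
      intro k hk h1 h2
      exact hNA l k hl hk (hidx ▸ h) h2 ⟨z, hzs, hlz, h1⟩
    have := s1 p u' v hcomm hvp hcop hc2 (hidx ▸ hpu)
    exact hv1 ((idx_eq_one_iff v).mpr this)
  · have hc2 : (idx (v * u')).Coprime (idx u') := by
      rw [← hcomm.eq]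
      apply Nat.coprime_of_dvd
      intro k hk h1 h2
      exact hNA k l hk hl (hidx ▸ h2) h ⟨z, hzs, h1, hlz⟩
    have := s1 p v u' hcomm.symm hu'p hcop.symm hc2 hpv
    exact hu1 ((idx_eq_one_iff u').mpr this)

theorem caseB [Finite G] (p : ℕ) [Fact p.Prime]
    (u v : G) (hu : u ≠ 1) (hup : IsPE p u) (hvp : IsPE p v) (hu1 : idx u ≠ 1)
    (hpu : ¬ p ∣ idx u) (hpv : p ∣ idx v)
    (hNA : ∀ t : ℕ, t.Prime → t ∣ idx u → ¬ Lk G p t p) : False := by
  obtain ⟨P, hP⟩ := exists_sylow_le u hpu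
  obtain ⟨t, ht, htu⟩ := Nat.exists_prime_and_dvd hu1
  have htp : t ≠ p := fun h => hpu (h ▸ htu)
  have h3 := st3 p u hup hu t htu (hNA t ht htu) P hP
  have h5 := st5 p u hNA P h3
  have hN := st6 p P h5 v hvp hpv
  exact st7 p P hN h5 u v hup hvp hpv t ht htp htu

theorem Lk.symm {p t q : ℕ} (h : Lk G p t q) : Lk G p q t := by
  obtain ⟨z, h1, h2, h3⟩ := h
  exact ⟨z, h1, h3, h2⟩

theorem main_lemma [Finite G] (p : ℕ) [Fact p.Prime] (hZ : ¬ p ∣ Nat.card ↥(Subgroup.center G))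
    (u v : G) (hu : u ≠ 1) (hv : v ≠ 1) (hup : IsPE p u) (hvp : IsPE p v) :
    ∃ t q : ℕ, t.Prime ∧ q.Prime ∧ t ∣ idx u ∧ q ∣ idx v ∧ Lk G p t q := by
  by_contra hcon
  have hNA : ∀ t q : ℕ, t.Prime → q.Prime → t ∣ idx u → q ∣ idx v → ¬ Lk G p t q := by
    intro t q ht hq h1 h2 h3
    exact hcon ⟨t, q, ht, hq, h1, h2, h3⟩
  have hp : p.Prime := Fact.out
  by_cases hpu : p ∣ idx u
  · by_cases hpv : p ∣ idx v
    · exact hNA p p hp hp hpu hpv ⟨u, dvd_orderOf_of_isPE hup hu, hpu, hpu⟩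
    · exact caseB p v u hv hvp hup (idx_ne_one_of_isPE hZ hvp hv) hpv hpu
        (fun t ht h1 h2 => hNA p t hp ht hpu h1 h2.symm)
  · by_cases hpv : p ∣ idx v
    · exact caseB p u v hu hup hvp (idx_ne_one_of_isPE hZ hup hu) hpu hpv
        (fun t ht h1 h2 => hNA t p ht hp h1 hpv h2)
    · exact caseA p hZ u v hu hv hup hvp hpu hpv hNA

end Cfsg.Agent.Lib.Helper84.PS
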